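import Mathlib
import Cfsg.Agent.Lib.Helper83.MinSU.DefsO
import Cfsg.Agent.Lib.Helper15.MinSU.BIG
import Cfsg.Agent.Lib.Helper15.MinSU.Sk

/-! # S2151 farm (helper83), piece [oBIG] (helper12, after helper15's BIG) -/

set_option autoImplicit false

namespace Cfsg.Agent.Lib.Helper12.MinSU.O

open Matrix Cfsg.Agent.Lib.Helper13 Cfsg.Agent.Lib.Helper5 Cfsg.Agent.Lib.Helper57.RootSU
  Cfsg.Agent.Lib.Helper83.MinSU Cfsg.Agent.Lib.Helper15.MinSU

variable {F : Type*} [Field F] [Fintype F] {q m n : ℕ}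

open Cfsg.Agent.Lib.Helper15.MinSU.BIG in
/-- [oBIG] -/
theorem big_lemma (hF : Fintype.card F = q ^ 2) (hm : 3 ≤ m) (D : AddSubgroup (Fin m → F))
    (w : Fin m → F) (hw : w ∈ D) (hw0 : w ≠ 0)
    (h : ∀ y : Fin m → F, y ≠ 0 → Cfsg.hermForm m F q y y = 0 →
      ∃ c : F, c ≠ 0 ∧ c + c ^ q = 0 ∧ ∀ z ∈ D, (ut hF y c).1.1 *ᵥ z ∈ D) :
    q ^ m < Nat.card D := by
  have hq := two_le_of_card_sq hF
  obtain ⟨w, hw, hw0, hww⟩ := exists_iso_mem hF hm D w hw hw0 h
  -- the hyperbolic partner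
  obtain ⟨y0, hy0, hy0w⟩ : ∃ y0, Cfsg.hermForm m F q y0 y0 = 0 ∧ Cfsg.hermForm m F q y0 w = 1 := by
    obtain ⟨b, hb⟩ := exists_hermForm_ne_zero hF hw0
    obtain ⟨l, hl⟩ := exists_isotropic_add_smul hF (u := w) (a := b) hww hb
    have h1 : Cfsg.hermForm m F q (b + l • w) w = Cfsg.hermForm m F q b w := by
      rw [hermForm_add_left, hermForm_smul_left, hww, mul_zero, add_zero]
    refine ⟨(Cfsg.hermForm m F q b w)⁻¹ • (b + l • w), ?_, ?_⟩
    · rw [hermForm_smul_left, hermForm_smul_right, hl, mul_zero, mul_zero]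
    · rw [hermForm_smul_left, h1, inv_mul_cancel₀ hb]
  have hwy0 : Cfsg.hermForm m F q w y0 = 1 := by
    rw [← hermForm_swap hF, hy0w, one_pow]
  -- a first solution of the trace equation
  have hex0 : ∀ u : (phi (q := q) w y0).ker, ∃ a : F,
      a + a ^ q = -Cfsg.hermForm m F q u.1 u.1 := by
    intro u
    exact exists_tr hF (-Cfsg.hermForm m F q u.1 u.1)
      (by rw [neg_pow_q hF, hermForm_self_pow hF])
  choose a0 ha0 using hex0
  -- the elements `z_(u,s)`
  have hex : ∀ p : (phi (q := q) w y0).ker × Sk hF, ∃ z ∈ D, ∃ c : F, c ≠ 0 ∧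
      z = c • (y0 + p.1.1 + (a0 p.1 + p.2.1) • w) := by
    rintro ⟨u, s⟩
    have hu : (Cfsg.hermForm m F q u.1 w, Cfsg.hermForm m F q u.1 y0) = 0 := u.2
    have hu1 : Cfsg.hermForm m F q u.1 w = 0 := congrArg Prod.fst hu
    have hu2 : Cfsg.hermForm m F q u.1 y0 = 0 := congrArg Prod.snd hu
    have hu1' : Cfsg.hermForm m F q w u.1 = 0 := hermForm_eq_zero_comm hF hu1
    have hu2' : Cfsg.hermForm m F q y0 u.1 = 0 := hermForm_eq_zero_comm hF hu2
    have hs : s.1 + s.1 ^ q = 0 := s.2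
    obtain ⟨a, haa⟩ : ∃ a, a = a0 u + s.1 := ⟨_, rfl⟩
    have ha : a + a ^ q = -Cfsg.hermForm m F q u.1 u.1 := by
      rw [haa, add_pow_q hF, ← ha0 u]
      linear_combination hs
    change ∃ z ∈ D, ∃ c : F, c ≠ 0 ∧ z = c • (y0 + u.1 + (a0 u + s.1) • w)
    rw [← haa]
    have hy : Cfsg.hermForm m F q (y0 + u.1 + a • w) (y0 + u.1 + a • w) = 0 := by
      simp only [hermForm_add_left, hermForm_add_right hF, hermForm_smul_left, hermForm_smul_right,
        hy0, hu1, hu2, hu1', hu2', hww, hy0w, hwy0]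
      linear_combination ha
    have hwy : Cfsg.hermForm m F q w (y0 + u.1 + a • w) = 1 := by
      simp only [hermForm_add_right hF, hermForm_smul_right, hu1', hww, hwy0]
      ring
    have hyne : y0 + u.1 + a • w ≠ 0 := by
      intro h0
      rw [h0, hermForm_zero_right hF] at hwy
      exact zero_ne_one hwy
    obtain ⟨c, hc0, hc, hD⟩ := h _ hyne hy
    refine ⟨c • (y0 + u.1 + a • w), ?_, c, hc0, rfl⟩
    have h1 := D.sub_mem (hD w hw) hw
    rwa [ut_mulVec hF hy hc, add_sub_cancel_left, hwy, mul_one] at h1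
  choose z hzD c hc0 hz using hex
  have hzw : ∀ p, Cfsg.hermForm m F q (z p) w = c p := by
    intro p
    have hu : (Cfsg.hermForm m F q p.1.1 w, Cfsg.hermForm m F q p.1.1 y0) = 0 := p.1.2
    have hu1 : Cfsg.hermForm m F q p.1.1 w = 0 := congrArg Prod.fst hu
    rw [hz p]
    simp only [hermForm_add_left, hermForm_smul_left, hu1, hww, hy0w]
    ring
  have hzy : ∀ p, Cfsg.hermForm m F q (z p) y0 = c p * (a0 p.1 + p.2.1) := by
    intro p
    have hu : (Cfsg.hermForm m F q p.1.1 w, Cfsg.hermForm m F q p.1.1 y0) = 0 := p.1.2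
    have hu2 : Cfsg.hermForm m F q p.1.1 y0 = 0 := congrArg Prod.snd hu
    rw [hz p]
    simp only [hermForm_add_left, hermForm_smul_left, hu2, hy0, hwy0]
    ring
  have hzne : ∀ p, z p ≠ 0 := by
    intro p h0
    have := hzw p
    rw [h0, hermForm_zero_left] at this
    exact hc0 p this.symm
  have hzinj : Function.Injective z := by
    intro p p' huu
    have e1 : c p = c p' := by rw [← hzw, ← hzw, huu]
    have e2 : a0 p.1 + p.2.1 = a0 p'.1 + p'.2.1 := by
      have : c p * (a0 p.1 + p.2.1) = c p' * (a0 p'.1 + p'.2.1) := by rw [← hzy, ← hzy, huu]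
      rw [← e1] at this
      exact mul_left_cancel₀ (hc0 p) this
    have e3 := huu
    rw [hz p, hz p', ← e1, ← e2] at e3
    have e4 := smul_right_injective _ (hc0 p) e3
    have e5 : p.1 = p'.1 := Subtype.ext (add_left_cancel (add_right_cancel e4))
    rw [e5] at e2
    exact Prod.ext e5 (Subtype.ext (add_left_cancel e2))
  have hcard : Nat.card ((phi (q := q) w y0).ker × Sk hF) + 1 ≤ Nat.card D := by
    rw [← Finite.card_option]
    refine Nat.card_le_card_of_injective
      (fun o : Option ((phi (q := q) w y0).ker × Sk hF) => (match o with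
        | none => (0 : D)
        | some u => ⟨z u, hzD u⟩)) ?_
    intro o o' hoo
    match o, o', hoo with
    | none, none, _ => rfl
    | none, some u, hoo =>
      exact absurd (congrArg Subtype.val hoo).symm (hzne u)
    | some u, none, hoo =>
      exact absurd (congrArg Subtype.val hoo) (hzne u)
    | some u, some u', hoo =>
      exact congrArg some (hzinj (congrArg Subtype.val hoo))
  rw [Nat.card_prod, card_Sk hF] at hcard
  have h1 := card_ker_phi hF (by omega) w y0
  have h2 : q ^ m ≤ q ^ (2 * m - 4) * q := by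
    rw [← pow_succ]
    exact Nat.pow_le_pow_right (by omega) (by omega)
  have h3 : q ^ (2 * m - 4) * q ≤ Nat.card (phi (q := q) w y0).ker * q :=
    Nat.mul_le_mul_right _ h1
  omega

end Cfsg.Agent.Lib.Helper12.MinSU.O
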