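/-
Piece oNUM of helper83's farm S2151 (by helper12, after helper8's NUM).
-/
import Mathlib
import Cfsg.Agent.Lib.Helper83.MinSU.DefsO

set_option autoImplicit false

namespace Cfsg.Agent.Lib.Helper12.MinSU.O

open Matrix Cfsg.Agent.Lib.Helper13 Cfsg.Agent.Lib.Helper5 Cfsg.Agent.Lib.Helper57.RootSU
  Cfsg.Agent.Lib.Helper83.MinSU

variable {q n : ℕ}

/-- [oNUM] -/
theorem NO_mul (hq : 2 ≤ q) (ho : Odd n) :
    NO q n * (q ^ 2 - 1) = (q ^ n + 1) * (q ^ (n - 1) - 1) := by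
  unfold NO
  apply Nat.div_mul_cancel
  obtain ⟨k, rfl⟩ := ho
  have h1 : q ^ 2 - 1 ∣ q ^ (2 * k + 1 - 1) - 1 := by
    rw [Nat.add_sub_cancel, pow_mul]
    have := Nat.sub_dvd_pow_sub_pow (q ^ 2) 1 k
    rwa [one_pow] at this
  exact Dvd.dvd.mul_left h1 _

/-- [oNUM] -/
theorem NO_succ (hq : 2 ≤ q) (ho : Odd n) :
    NO q (n + 2) = 1 + q ^ 2 * NO q n + q ^ (2 * n + 1) := by
  have h1 := NO_mul hq ho
  have h2 := NO_mul hq (n := n + 2) (by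
    obtain ⟨k, rfl⟩ := ho
    exact ⟨k + 1, by ring⟩)
  have hpos : 0 < q ^ 2 - 1 := by
    have : 4 ≤ q ^ 2 := by nlinarith
    omega
  apply Nat.eq_of_mul_eq_mul_right hpos
  rw [h2, add_mul (1 + q ^ 2 * NO q n), add_mul 1, mul_assoc, h1]
  obtain ⟨m, rfl⟩ : ∃ m, n = m + 1 := ⟨n - 1, by
    obtain ⟨k, rfl⟩ := ho
    omega⟩
  have e1 : m + 1 + 2 - 1 = m + 2 := by omega
  have e2 : m + 1 - 1 = m := by omega
  rw [e1, e2]
  have hx : 1 ≤ q ^ m := Nat.one_le_pow _ _ (by omega)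
  have hq2 : 1 ≤ q ^ 2 := Nat.one_le_pow _ _ (by omega)
  have hA : 1 ≤ q ^ (m + 2) := Nat.one_le_pow _ _ (by omega)
  zify [hA, hx, hq2]
  ring

end Cfsg.Agent.Lib.Helper12.MinSU.O
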