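import Mathlib
import Cfsg.Agent.Lib.Helper83.MinSU.DefsO
import Cfsg.Agent.Lib.Helper75.MinSU.ALPHA
import Cfsg.Agent.Lib.Helper12.MinSU.oNUM
import Cfsg.Agent.Lib.Helper12.MinSU.oBIG
import Cfsg.Agent.Lib.Helper12.MinSU.oTOP

/-! # S2151 farm (helper83), pieces [oALPHA] [oBETA] (helper12, after helper75's ALPHA) -/

set_option autoImplicit false

namespace Cfsg.Agent.Lib.Helper12.MinSU.O

open Matrix Cfsg.Agent.Lib.Helper13 Cfsg.Agent.Lib.Helper5 Cfsg.Agent.Lib.Helper57.RootSU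
  Cfsg.Agent.Lib.Helper83.MinSU
open Cfsg.Agent.Lib.Helper15.MinSU Cfsg.Agent.Lib.Helper22.MinSU Cfsg.Agent.Lib.Helper75.MinSU

variable {F : Type*} [Field F] [Fintype F] {q m n : ℕ}

/-- `N'_(m+2) (q²-1) < q^(2m+3)`. -/
lemma arith_lt_o (q m N : ℕ) (hq : 2 ≤ q)
    (h1 : N * (q ^ 2 - 1) = (q ^ (m + 2) + 1) * (q ^ (m + 2 - 1) - 1)) :
    N * (q ^ 2 - 1) ≤ q ^ (2 * m + 3) := by
  rw [h1]
  obtain ⟨x, hx⟩ : ∃ x, x = q ^ m := ⟨_, rfl⟩
  have e1 : q ^ (m + 2) = q ^ 2 * x := by rw [hx]; ring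
  have e2 : q ^ (m + 2 - 1) = q * x := by
    rw [hx, show m + 2 - 1 = m + 1 by omega]; ring
  have e3 : q ^ (2 * m + 3) = q ^ 3 * x ^ 2 := by rw [hx]; ring
  have hx1 : 1 ≤ x := by
    rw [hx]
    exact Nat.one_le_pow _ _ (by omega)
  rw [e1, e2, e3]
  have hqx : 1 ≤ q * x := by nlinarith
  zify [hqx]
  have hQ : (2 : ℤ) ≤ q := by exact_mod_cast hq
  have hX : (1 : ℤ) ≤ x := by exact_mod_cast hx1
  nlinarith [mul_nonneg (by linarith : (0 : ℤ) ≤ (q : ℤ) - 1) (by nlinarith : (0 : ℤ) ≤ (q : ℤ) * x)]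

/-- `N'_(m+2) ≤ 2 q^(2m+1)`. -/
lemma arith_two_o (q m N : ℕ) (hq : 2 ≤ q)
    (h1 : N * (q ^ 2 - 1) = (q ^ (m + 2) + 1) * (q ^ (m + 2 - 1) - 1)) :
    N ≤ 2 * q ^ (2 * m + 1) := by
  have h2 := arith_lt_o q m N hq h1
  have hq2 : 4 ≤ q ^ 2 := by nlinarith
  have hpos : 0 < q ^ 2 - 1 := by omega
  refine Nat.le_of_mul_le_mul_right (h2.trans ?_) hpos
  have e : q ^ (2 * m + 3) = q ^ (2 * m + 1) * q ^ 2 := by ring
  rw [e]
  calc q ^ (2 * m + 1) * q ^ 2 ≤ q ^ (2 * m + 1) * (2 * (q ^ 2 - 1)) :=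
        Nat.mul_le_mul_left _ (by omega)
    _ = 2 * q ^ (2 * m + 1) * (q ^ 2 - 1) := by ring

/-- `N'_(m+2) ≤ 2 q^(2m) (q-1)` for `q ≥ 4`. -/
lemma arith_beta_o (q m N : ℕ) (hq : 4 ≤ q)
    (h1 : N * (q ^ 2 - 1) = (q ^ (m + 2) + 1) * (q ^ (m + 2 - 1) - 1)) :
    N ≤ 2 * q ^ (2 * m) * (q - 1) := by
  have h2 := arith_lt_o q m N (by omega) h1
  have hq2 : 16 ≤ q ^ 2 := by nlinarith
  have hpos : 0 < q ^ 2 - 1 := by omega
  refine Nat.le_of_mul_le_mul_right (h2.trans ?_) hpos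
  have e : q ^ (2 * m + 3) = q ^ (2 * m) * q ^ 3 := by ring
  rw [e]
  have key : q ^ 3 ≤ 2 * (q - 1) * (q ^ 2 - 1) := by
    obtain ⟨k, rfl⟩ : ∃ k, q = k + 4 := ⟨q - 4, by omega⟩
    have e1 : k + 4 - 1 = k + 3 := by omega
    have e2 : (k + 4) ^ 2 - 1 = k ^ 2 + 8 * k + 15 := by
      have : (k + 4) ^ 2 = k ^ 2 + 8 * k + 16 := by ring
      omega
    rw [e1, e2]
    nlinarith
  calc q ^ (2 * m) * q ^ 3 ≤ q ^ (2 * m) * (2 * (q - 1) * (q ^ 2 - 1)) :=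
        Nat.mul_le_mul_left _ key
    _ = 2 * q ^ (2 * m) * (q - 1) * (q ^ 2 - 1) := by ring

section loc

variable {P : Type*} [Group P] [Finite P] (L : ULoc m F q P) (S : Subgroup P)

/-- [oALPHA] -/
theorem local_alpha (hF : Fintype.card F = q ^ 2) (hq : 3 ≤ q) (hm : 3 ≤ m) (ho : Odd m)
    (hWB : WBo F q m) (hRF : L.RF S) (hA : ∀ a, a + a ^ q = 0 → L.rho 0 a ∈ S → a = 0) :
    NO q (m + 2) ≤ S.index := by
  have hq2 : 2 ≤ q := by omega
  have hAbot : L.A hF S = ⊥ := by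
    rw [AddSubgroup.eq_bot_iff_forall]
    rintro a ⟨h1, h2⟩
    exact hA a h1 h2
  have hidx := index_formula L S hF
  rw [hAbot, AddSubgroup.card_bot, mul_one] at hidx
  have hN2 : NO q (m + 2) ≤ 2 * q ^ (2 * m + 1) :=
    arith_two_o q m _ hq2 (NO_mul hq2 (ho.add_even even_two))
  have hl : Nat.card (L.Lam S) ≤ q ^ 2 - 1 := card_Lam_le L S hF
  have hl0 : 0 < Nat.card (L.Lam S) := Nat.card_pos
  have hfac := sq_sub_one_eq q (by omega)
  have hX0 : 0 < q ^ (2 * m + 1) := by positivity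
  by_cases hB : L.Bb hF S = ⊥
  · rw [hB, AddSubgroup.card_bot, one_mul] at hidx
    refine hN2.trans ?_
    by_cases hS1 : L.S1 hF S = ⊤
    · have hl' : Nat.card (L.Lam S) ≤ q + 1 :=
        card_Lam_le' L S hF (S1_top_lam L S hF hm (by omega) hRF hS1).2
      rw [hS1, Subgroup.index_top, mul_one, hfac] at hidx
      have h1 : q ^ (2 * m + 1) * (q - 1) * (q + 1) ≤ S.index * (q + 1) := by
        calc q ^ (2 * m + 1) * (q - 1) * (q + 1) = q ^ (2 * m + 1) * ((q - 1) * (q + 1)) := by ring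
          _ = S.index * Nat.card (L.Lam S) := hidx.symm
          _ ≤ S.index * (q + 1) := Nat.mul_le_mul_left _ hl'
      have h2 := Nat.le_of_mul_le_mul_right h1 (by omega)
      calc 2 * q ^ (2 * m + 1) = q ^ (2 * m + 1) * 2 := by ring
        _ ≤ q ^ (2 * m + 1) * (q - 1) := Nat.mul_le_mul_left _ (by omega)
        _ ≤ S.index := h2
    · have hi := two_le_index _ hS1
      have h1 : 2 * q ^ (2 * m + 1) * Nat.card (L.Lam S) ≤ S.index * Nat.card (L.Lam S) := by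
        rw [hidx]
        calc 2 * q ^ (2 * m + 1) * Nat.card (L.Lam S) ≤ 2 * q ^ (2 * m + 1) * (q ^ 2 - 1) :=
              Nat.mul_le_mul_left _ hl
          _ = q ^ (2 * m + 1) * (q ^ 2 - 1) * 2 := by ring
          _ ≤ q ^ (2 * m + 1) * (q ^ 2 - 1) * (L.S1 hF S).index := Nat.mul_le_mul_left _ hi
      exact Nat.le_of_mul_le_mul_right h1 hl0
  · have hwb := hWB (L.Bb hF S) (L.S1 hF S) hB
      (by
        intro w hw w' hw'
        have h1 := form_mem_A L S hF w w' hw hw'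
        rw [hAbot, AddSubgroup.mem_bot, sub_eq_zero] at h1
        rw [hermForm_swap hF, ← h1])
      (by
        intro h2 w hw
        have h1 := sq_mem_A L S hF h2 w hw
        rwa [hAbot, AddSubgroup.mem_bot] at h1)
      (fun l hl w hw => Bb_invariant L S hF l hl w hw)
    have hb0 : 0 < Nat.card (L.Bb hF S) := Nat.card_pos
    have h1 : NO q (m + 2) * (Nat.card (L.Bb hF S) * Nat.card (L.Lam S))
        ≤ S.index * (Nat.card (L.Bb hF S) * Nat.card (L.Lam S)) := by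
      rw [hidx]
      calc NO q (m + 2) * (Nat.card (L.Bb hF S) * Nat.card (L.Lam S))
          = (Nat.card (L.Bb hF S) * NO q (m + 2)) * Nat.card (L.Lam S) := by ring
        _ ≤ (q ^ (2 * m + 1) * (L.S1 hF S).index) * (q ^ 2 - 1) := Nat.mul_le_mul hwb hl
        _ = q ^ (2 * m + 1) * (q ^ 2 - 1) * (L.S1 hF S).index := by ring
    exact Nat.le_of_mul_le_mul_right h1 (Nat.mul_pos hb0 hl0)

/-- [oBETA] -/
theorem local_beta (hF : Fintype.card F = q ^ 2) (hm : 3 ≤ m) (ho : Odd m) (hRF : L.RF S)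
    (hA : ∃ a, a ≠ 0 ∧ a + a ^ q = 0 ∧ L.rho 0 a ∈ S)
    (hC : ∀ w : Fin m → F, w ≠ 0 → Cfsg.hermForm m F q w w = 0 →
      ∃ c, c ≠ 0 ∧ c + c ^ q = 0 ∧ L.eps (ut hF w c) ∈ S) :
    NO q (m + 2) ≤ S.index := by
  have hq2 : 2 ≤ q := two_le_q' hF
  -- `Bb = ⊥`
  have hB : L.Bb hF S = ⊥ := by
    by_contra hB
    obtain ⟨w, hw, hw0⟩ : ∃ w ∈ L.Bb hF S, w ≠ 0 := by
      by_contra hcon
      push Not at hcon
      exact hB ((AddSubgroup.eq_bot_iff_forall _).2 hcon)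
    have hbig := big_lemma hF hm (L.Bb hF S) w hw hw0 (by
      intro y hy0 hy
      obtain ⟨c, hc0, hc, hcS⟩ := hC y hy0 hy
      refine ⟨c, hc0, hc, fun z hz => Bb_invariant L S hF _ ?_ z hz⟩
      exact ⟨0, 0, Val.zero hF, by rw [L.rho_zero hF, one_mul]; exact hcS⟩)
    obtain ⟨s, hs, hsS⟩ := hRF.1
    have hdual := iso_lemma hF (L.A hF S) ⟨s, hs, fun h => hsS h.2⟩ (L.Bb hF S)
      (fun w hw w' hw' => form_mem_A L S hF w w' hw hw')
    have : Nat.card (L.Bb hF S) ≤ q ^ m := by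
      have h3 : Nat.card (L.Bb hF S) ^ 2 ≤ (q ^ m) ^ 2 := by
        rw [← pow_mul, mul_comm m 2]; exact hdual
      exact (Nat.pow_le_pow_iff_left (by norm_num)).1 h3
    omega
  have hidx := index_formula L S hF
  rw [hB, AddSubgroup.card_bot, one_mul] at hidx
  obtain ⟨hlam1, hlam2⟩ := lam_A L S hF hRF.1
  have ha2 : 2 ≤ Nat.card (L.A hF S) := by
    obtain ⟨a, ha0, ha, haS⟩ := hA
    have : Nontrivial (L.A hF S) :=
      ⟨⟨⟨a, ha, haS⟩, 0, fun h => ha0 (congrArg Subtype.val h)⟩⟩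
    exact Finite.one_lt_card
  have hq4 : 4 ≤ q := by omega
  have hfac := sq_sub_one_eq q (by omega)
  have hl0 : 0 < Nat.card (L.Lam S) := Nat.card_pos
  have hNb : NO q (m + 2) ≤ 2 * q ^ (2 * m) * (q - 1) :=
    arith_beta_o q m _ hq4 (NO_mul hq2 (ho.add_even even_two))
  by_cases hS1 : L.S1 hF S = ⊤
  · have hl' : Nat.card (L.Lam S) ≤ q + 1 :=
      card_Lam_le' L S hF (S1_top_lam L S hF hm (by omega) hRF hS1).2
    rw [hS1, Subgroup.index_top, mul_one, hfac] at hidx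
    refine hNb.trans ?_
    -- `I a (q+1) ≥ q^(2m+1) (q-1) (q+1)`, `2 a ≤ q`
    have h1 : (2 * q ^ (2 * m) * (q - 1)) * (q * (q + 1)) ≤ S.index * (q * (q + 1)) := by
      calc (2 * q ^ (2 * m) * (q - 1)) * (q * (q + 1))
          = 2 * (q ^ (2 * m + 1) * ((q - 1) * (q + 1))) := by ring
        _ = 2 * (S.index * (Nat.card (L.A hF S) * Nat.card (L.Lam S))) := by rw [hidx]
        _ = S.index * ((2 * Nat.card (L.A hF S)) * Nat.card (L.Lam S)) := by ring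
        _ ≤ S.index * (q * (q + 1)) := Nat.mul_le_mul_left _ (Nat.mul_le_mul hlam1 hl')
    exact Nat.le_of_mul_le_mul_right h1 (by positivity)
  · have hi := two_le_index _ hS1
    have hal : Nat.card (L.A hF S) * Nat.card (L.Lam S) ≤ q ^ 2 - 1 := by
      rw [hfac]
      have h3 : Nat.card (L.Lam S) * Nat.card (L.A hF S) + (q + 1) * Nat.card (L.A hF S)
          ≤ (q + 1) * q := by
        rw [← add_mul]; exact hlam2
      have h4 : (q + 1) * 1 ≤ (q + 1) * Nat.card (L.A hF S) := Nat.mul_le_mul_left _ (by omega)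
      obtain ⟨k, rfl⟩ : ∃ k, q = k + 1 := ⟨q - 1, by omega⟩
      simp only [Nat.add_sub_cancel]
      nlinarith
    have hN2 : NO q (m + 2) ≤ 2 * q ^ (2 * m + 1) :=
      arith_two_o q m _ hq2 (NO_mul hq2 (ho.add_even even_two))
    refine hN2.trans ?_
    have hc0 : 0 < q ^ 2 - 1 := by
      rw [hfac]
      exact Nat.mul_pos (by omega) (by omega)
    have h1 : 2 * q ^ (2 * m + 1) * (q ^ 2 - 1) ≤ S.index * (q ^ 2 - 1) := by
      calc 2 * q ^ (2 * m + 1) * (q ^ 2 - 1) = q ^ (2 * m + 1) * (q ^ 2 - 1) * 2 := by ring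
        _ ≤ q ^ (2 * m + 1) * (q ^ 2 - 1) * (L.S1 hF S).index := Nat.mul_le_mul_left _ hi
        _ = S.index * (Nat.card (L.A hF S) * Nat.card (L.Lam S)) := hidx.symm
        _ ≤ S.index * (q ^ 2 - 1) := Nat.mul_le_mul_left _ hal
    exact Nat.le_of_mul_le_mul_right h1 hc0

end loc

end Cfsg.Agent.Lib.Helper12.MinSU.O
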