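import Mathlib
import Cfsg.Agent.Lib.Helper83.MinSU.DefsO
import Cfsg.Agent.Lib.Helper81.MinSU.G1
import Cfsg.Agent.S0285

/-! # S2151 farm (helper83), piece [oE1c] (helper12) -/

set_option autoImplicit false

namespace Cfsg.Agent.Lib.Helper12.MinSU.O

open Matrix Cfsg.Agent.Lib.Helper13 Cfsg.Agent.Lib.Helper5 Cfsg.Agent.Lib.Helper57.RootSU
  Cfsg.Agent.Lib.Helper83.MinSU Cfsg.Agent.Lib.Helper81.MinSU

variable {F : Type*} [Field F] [Fintype F] {q m n : ℕ}

theorem two_eq_zero_E1c (hF : Fintype.card F = 2 ^ 2) : (2 : F) = 0 := by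
  have h := Nat.cast_card_eq_zero F
  rw [hF] at h
  have h4 : (2 : F) ^ 2 = 0 := by
    have : ((2 ^ 2 : ℕ) : F) = (2 : F) ^ 2 := by push_cast; ring
    rw [← this]; exact h
  exact pow_eq_zero_iff (two_ne_zero) |>.1 h4

theorem card_iso3_E1c (hF : Fintype.card F = 2 ^ 2) :
    Nat.card {w : Fin 3 → F // w ≠ 0 ∧ Cfsg.hermForm 3 F 2 w w = 0} = 27 := by
  have h := Cfsg.Agent.S0285.result hF 3
  have h1 : Nat.card {w : Fin 3 → F // w ≠ 0 ∧ Cfsg.hermForm 3 F 2 w w = 0}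
      = ({v : Fin 3 → F | Cfsg.hermForm 3 F 2 v v = 0} \ {0}).ncard := by
    rw [← Nat.card_coe_set_eq]
    apply Nat.card_congr
    exact Equiv.subtypeEquivRight (by
      intro x
      simp only [Set.mem_sdiff, Set.mem_ofPred_eq, Set.mem_singleton_iff]
      exact and_comm)
  rw [h1, Set.ncard_sdiff_singleton_of_mem (by
    change Cfsg.hermForm 3 F 2 0 0 = 0
    exact hermForm_zero_left _), ← Nat.card_coe_set_eq]
  change Nat.card {v : Fin 3 → F // Cfsg.hermForm 3 F 2 v v = 0} - 1 = 27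
  rw [h]
  decide

/-- the count for the standard isotropic vector `(1,1,0,0,0)` -/
theorem perp_count_std_E1c (hF : Fintype.card F = 2 ^ 2) :
    Nat.card {x : Fin (3 + 2) → F // x ≠ 0 ∧ Cfsg.hermForm (3 + 2) F 2 x x = 0 ∧
      Cfsg.hermForm (3 + 2) F 2 x (Fin.cons 1 (Fin.cons 1 0)) = 0 ∧
        ¬ ∃ c : F, x = c • (Fin.cons 1 (Fin.cons 1 0) : Fin (3 + 2) → F)} = 108 := by
  have h2 := two_eq_zero_E1c hF
  have htail : ∀ (c d : F) (w : Fin 3 → F) (i : Fin 3),
      (Fin.cons c (Fin.cons d w) : Fin (3 + 2) → F) i.succ.succ = w i := by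
    intro c d w i
    simp
  let f : F × {w : Fin 3 → F // w ≠ 0 ∧ Cfsg.hermForm 3 F 2 w w = 0} →
      {x : Fin (3 + 2) → F // x ≠ 0 ∧ Cfsg.hermForm (3 + 2) F 2 x x = 0 ∧
      Cfsg.hermForm (3 + 2) F 2 x (Fin.cons 1 (Fin.cons 1 0)) = 0 ∧
        ¬ ∃ c : F, x = c • (Fin.cons 1 (Fin.cons 1 0) : Fin (3 + 2) → F)} :=
    fun p => ⟨Fin.cons p.1 (Fin.cons p.1 p.2.1), by
      refine ⟨?_, ?_, ?_, ?_⟩
      · intro h0
        apply p.2.2.1
        funext i
        have := congrFun h0 i.succ.succ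
        rw [htail] at this
        exact this
      · rw [hermForm_cons2, p.2.2.2]
        linear_combination (p.1 * p.1 ^ 2) * h2
      · rw [hermForm_cons2, hermForm_zero_right hF]
        linear_combination p.1 * h2
      · rintro ⟨c, hc⟩
        apply p.2.2.1
        funext i
        have := congrFun hc i.succ.succ
        rw [htail, Pi.smul_apply, htail] at this
        simpa using this⟩
  have hf : Function.Bijective f := by
    constructor
    · rintro ⟨c, w⟩ ⟨c', w'⟩ h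
      have h' : (Fin.cons c (Fin.cons c w.1) : Fin (3 + 2) → F) = Fin.cons c' (Fin.cons c' w'.1) :=
        congrArg Subtype.val h
      have e1 : c = c' := by simpa using congrFun h' 0
      have e2 : w = w' := by
        apply Subtype.ext
        funext i
        have := congrFun h' i.succ.succ
        rwa [htail, htail] at this
      rw [e1, e2]
    · rintro ⟨x, hx0, hxx, hxe, hxn⟩
      rw [eq_cons2 x, hermForm_cons2, hermForm_zero_right hF] at hxe
      have h01 : x 1 = x 0 := by linear_combination hxe - x 0 * h2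
      have hx : x = Fin.cons (x 0) (Fin.cons (x 0) (fun i => x i.succ.succ)) := by
        conv_lhs => rw [eq_cons2 x, h01]
      have ht0 : (fun i : Fin 3 => x i.succ.succ) ≠ 0 := by
        intro h0
        apply hxn
        refine ⟨x 0, ?_⟩
        rw [hx, h0]
        funext i
        refine Fin.cases ?_ (fun i => Fin.cases ?_ (fun i => ?_) i) i <;> simp
      have htt : Cfsg.hermForm 3 F 2 (fun i : Fin 3 => x i.succ.succ) (fun i => x i.succ.succ)
          = 0 := by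
        rw [hx, hermForm_cons2] at hxx
        linear_combination hxx - (x 0 * x 0 ^ 2) * h2
      exact ⟨(x 0, ⟨_, ht0, htt⟩), Subtype.ext hx.symm⟩
  rw [← Nat.card_eq_of_bijective f hf, Nat.card_prod, card_iso3_E1c hF, Nat.card_eq_fintype_card, hF]
  norm_num

/-- [oE1c] -/
theorem perp_count (hF : Fintype.card F = 2 ^ 2) (u : Fin 5 → F) (hu : u ≠ 0)
    (huu : Cfsg.hermForm 5 F 2 u u = 0) :
    Nat.card {x : Fin 5 → F // x ≠ 0 ∧ Cfsg.hermForm 5 F 2 x x = 0 ∧
      Cfsg.hermForm 5 F 2 x u = 0 ∧ ¬ ∃ c : F, x = c • u} = 108 := by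
  have h2 := two_eq_zero_E1c hF
  obtain ⟨e, he⟩ : ∃ e : Fin 5 → F, e = (Fin.cons 1 (Fin.cons 1 0) : Fin (3 + 2) → F) := ⟨_, rfl⟩
  have he0 : e ≠ 0 := by
    intro h0
    have := congrFun h0 0
    rw [he] at this
    simp at this
  have hee : Cfsg.hermForm 5 F 2 e e = 0 := by
    rw [he]
    have := hermForm_cons2 (q := 2) 3 (1 : F) 1 1 1 0 0
    rw [hermForm_zero_left] at this
    rw [this]
    linear_combination h2
  obtain ⟨g, hg⟩ := exists_su_map hF (by norm_num) u e hu he0 huu hee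
  have hstd := perp_count_std_E1c hF
  rw [← he] at hstd
  rw [← hstd]
  refine Nat.card_congr (Equiv.subtypeEquiv
    ⟨fun x => g.1.1 *ᵥ x, fun x => (g⁻¹).1.1 *ᵥ x, SU_inv_mulVec_mulVec g,
      SU_mulVec_inv_mulVec g⟩ ?_)
  intro x
  change _ ↔ (g.1.1 *ᵥ x ≠ 0 ∧ Cfsg.hermForm 5 F 2 (g.1.1 *ᵥ x) (g.1.1 *ᵥ x) = 0 ∧
    Cfsg.hermForm 5 F 2 (g.1.1 *ᵥ x) e = 0 ∧ ¬ ∃ c : F, g.1.1 *ᵥ x = c • e)
  rw [← hg, SU_preserves, SU_preserves]
  have e1 : g.1.1 *ᵥ x ≠ 0 ↔ x ≠ 0 := by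
    constructor
    · rintro h rfl
      exact h (mulVec_zero _)
    · intro h h0
      apply h
      rw [← SU_inv_mulVec_mulVec g x, h0, mulVec_zero]
  have e2 : (∃ c : F, g.1.1 *ᵥ x = c • g.1.1 *ᵥ u) ↔ ∃ c : F, x = c • u := by
    constructor
    · rintro ⟨c, hc⟩
      refine ⟨c, ?_⟩
      rw [← SU_inv_mulVec_mulVec g x, hc, mulVec_smul, SU_inv_mulVec_mulVec]
    · rintro ⟨c, rfl⟩
      exact ⟨c, mulVec_smul _ _ _⟩
  rw [e1, e2]

end Cfsg.Agent.Lib.Helper12.MinSU.O
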